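import Cfsg.Agent.CoprimeAction.Basic
import Cfsg.Agent.Subnormal.BaerSuzuki
import Cfsg.Agent.PCore.Descent
import Cfsg.Agent.Transfer.Residual
import Mathlib.Tactic

/-!
An element `b` with `⁅b, Q⁆ ≤ ⟨b ^ p⟩ ≤ Q`, `p` odd, for a self-centralizing elementary abelian `Q = O_p(G)`.
-/

set_option autoImplicit false
set_option linter.style.haveILetI false

open scoped commutatorElement

namespace CfsgLib.CyclicInPCore

variable {p : ℕ} [hp : Fact p.Prime] {G : Type*} [Group G] [Finite G]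

theorem zpow_congr {z : G} (hz : z ^ p = 1) {x y : ℤ} (h : (x : ZMod p) = (y : ZMod p)) : z ^ x = z ^ y := by
  obtain ⟨k, hk⟩ := (ZMod.intCast_eq_intCast_iff_dvd_sub x y p).1 h
  rw [show y = x + (p : ℤ) * k by rw [← hk]; ring, zpow_add, zpow_mul, zpow_natCast, hz, one_zpow, mul_one]

theorem zpowers_eq_of_mem {z : G} (hz : z ^ p = 1) {t : G} (ht : t ∈ Subgroup.zpowers z) (h : t ≠ 1) :
    z ∈ Subgroup.zpowers t := by
  obtain ⟨a, rfl⟩ := Subgroup.mem_zpowers_iff.1 ht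
  have ha : (a : ZMod p) ≠ 0 := fun h0 => h ((zpow_congr hz (y := 0) (by simpa using h0)).trans (zpow_zero z))
  refine ⟨(((a : ZMod p)⁻¹).val : ℤ), ?_⟩
  show (z ^ a) ^ (((a : ZMod p)⁻¹).val : ℤ) = z
  rw [← zpow_mul, zpow_congr hz (y := 1) (by push_cast; rw [ZMod.natCast_val, ZMod.cast_id]; field_simp), zpow_one]

/-- Elements stabilizing a short chain of `Q` generate a `p`-group modulo `C(Q)`. -/
theorem isPGroup_map_closure {Q W Z : Subgroup G} [Q.Normal] (hQp : IsPGroup p Q) (hC : Subgroup.centralizer (Q : Set G) ≤ Q)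
    (hWQ : W ≤ Q) (hZW : Z ≤ W) (s : Set G) (h1 : ∀ x ∈ s, ∀ q ∈ Q, ⁅x, q⁆ ∈ W)
    (h2 : ∀ x ∈ s, ∀ w ∈ W, ⁅x, w⁆ ∈ Z) (h3 : ∀ x ∈ s, ∀ v ∈ Z, x * v * x⁻¹ = v) :
    IsPGroup p ((Subgroup.closure s).map (QuotientGroup.mk' Q)) := by
  have key : ∀ x ∈ Subgroup.closure s, (∀ q ∈ Q, ⁅x, q⁆ ∈ W) ∧ (∀ w ∈ W, ⁅x, w⁆ ∈ Z) ∧ ∀ v ∈ Z, x * v * x⁻¹ = v := by
    intro x hx
    induction hx using Subgroup.closure_induction with
    | mem x hx => exact ⟨h1 x hx, h2 x hx, h3 x hx⟩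
    | one => simp
    | mul a b _ _ iha ihb =>
      refine ⟨fun q hq => ?_, fun w hw => ?_, fun v hv => ?_⟩
      · have e : ⁅a * b, q⁆ = ⁅a, ⁅b, q⁆⁆ * ⁅b, q⁆ * ⁅a, q⁆ := by simp only [commutatorElement_def]; group
        rw [e]
        exact W.mul_mem (W.mul_mem (hZW (iha.2.1 _ (ihb.1 q hq))) (ihb.1 q hq)) (iha.1 q hq)
      · have e : ⁅a * b, w⁆ = (a * ⁅b, w⁆ * a⁻¹) * ⁅a, w⁆ := by simp only [commutatorElement_def]; group
        rw [e, iha.2.2 _ (ihb.2.1 w hw)]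
        exact Z.mul_mem (ihb.2.1 w hw) (iha.2.1 w hw)
      · calc a * b * v * (a * b)⁻¹ = a * (b * v * b⁻¹) * a⁻¹ := by group
          _ = v := by rw [ihb.2.2 v hv, iha.2.2 v hv]
    | inv a _ iha =>
      have hfix : ∀ v ∈ Z, a⁻¹ * v * a = v := fun v hv => by
        conv_lhs => rw [← iha.2.2 v hv]
        group
      have hW : ∀ w ∈ W, ⁅a⁻¹, w⁆ ∈ Z := fun w hw => by
        have e : ⁅a⁻¹, w⁆ = a⁻¹ * (⁅a, w⁆)⁻¹ * a := by simp only [commutatorElement_def]; group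
        rw [e, hfix _ (Z.inv_mem (iha.2.1 w hw))]
        exact Z.inv_mem (iha.2.1 w hw)
      refine ⟨fun q hq => ?_, hW, fun v hv => by rw [inv_inv]; exact hfix v hv⟩
      have e : ⁅a⁻¹, q⁆ = ⁅a⁻¹, (⁅a, q⁆)⁻¹⁆ * (⁅a, q⁆)⁻¹ := by simp only [commutatorElement_def]; group
      rw [e]
      exact W.mul_mem (hZW (hW _ (W.inv_mem (iha.1 q hq)))) (W.inv_mem (iha.1 q hq))
  refine CfsgLib.PCore.isPGroup_of_forall_coprime _ ?_
  rintro _ ⟨x, hx, rfl⟩ hxp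
  obtain ⟨s', c, hsc, -, ⟨j, hj⟩, hc, hs, hcz⟩ := CfsgLib.Transfer.exists_pPart_mul (p := p) x
  have hcx := (Subgroup.zpowers_le.2 hx) hcz
  obtain ⟨hk1, hk2, hk3⟩ := key c hcx
  have hchain : ∀ {N K : Subgroup G}, N ≤ Q → c ∈ Subgroup.centralizer (N : Set G) →
      (∀ q ∈ K, ⁅c, q⁆ ∈ N) → c ∈ Subgroup.centralizer (K : Set G) := by
    intro N K hNQ hcN hK
    obtain ⟨n, hn⟩ := IsPGroup.iff_card.1 (hQp.to_le hNQ)
    refine CfsgLib.CoprimeAction.le_centralizer_of_chain (A := Subgroup.zpowers c) (N := N) (K := K)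
      (by rw [Nat.card_zpowers, hn]; exact hc.pow_right n) (Subgroup.zpowers_le.2 hcN) ?_ (Subgroup.mem_zpowers c)
    refine Subgroup.commutator_le.2 fun q hq t ht => ?_
    obtain ⟨i, rfl⟩ := (isOfFinOrder_of_finite c).mem_powers_iff_mem_zpowers.2 ht
    rw [← commutatorElement_inv]
    refine N.inv_mem ?_
    clear ht
    induction i with
    | zero => simp
    | succ i ih =>
      have e : ⁅c ^ (i + 1), q⁆ = (c ^ i * ⁅c, q⁆ * (c ^ i)⁻¹) * ⁅c ^ i, q⁆ := by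
        rw [pow_succ]; simp only [commutatorElement_def]; group
      rw [e, ← Subgroup.mem_centralizer_iff.1 (Subgroup.pow_mem _ hcN i) _ (hK q hq), mul_inv_cancel_right]
      exact N.mul_mem (hK q hq) ih
  have hcZ : c ∈ Subgroup.centralizer (Z : Set G) :=
    Subgroup.mem_centralizer_iff.2 fun v hv => (mul_inv_eq_iff_eq_mul.1 (hk3 v hv)).symm
  have hcQ : c ∈ Q := hC (hchain hWQ (hchain (hZW.trans hWQ) hcZ hk2) hk1)
  have hπ : QuotientGroup.mk' Q x = QuotientGroup.mk' Q s' := by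
    rw [hsc, map_mul, show QuotientGroup.mk' Q c = 1 from (QuotientGroup.eq_one_iff c).2 hcQ, mul_one]
  refine orderOf_eq_one_iff.1 (Nat.eq_one_of_dvd_coprimes (hxp.pow_right j) dvd_rfl ?_)
  rw [hπ, ← hj]
  exact orderOf_map_dvd _ s'

set_option maxHeartbeats 800000 in
/-- The obstruction. -/
theorem false_of_cyclic_transvection (hp2 : p ≠ 2) (Q : Subgroup G) [Q.Normal]
    (hc : ∀ u ∈ Q, ∀ v ∈ Q, u * v = v * u) (he : ∀ u ∈ Q, u ^ p = 1)
    (hC : Subgroup.centralizer (Q : Set G) ≤ Q) (hO : Cfsg.pCore p G ≤ Q) {b z : G} (hzQ : z ∈ Q) (hz1 : z ≠ 1)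
    (hbp : b ^ p = z) (hb : ∀ q ∈ Q, ⁅b, q⁆ ∈ Subgroup.zpowers z) : False := by
  classical
  have hQp : IsPGroup p Q := fun u => ⟨1, Subtype.ext (by rw [Subgroup.coe_pow, pow_one]; exact he u u.2)⟩
  have hzp := he z hzQ
  have hbQ : b ∉ Q := fun h => hz1 (hbp ▸ he b h)
  have hbz : b * z * b⁻¹ = z := by rw [← hbp, ← pow_succ', pow_succ, mul_inv_cancel_right]
  have hbO : QuotientGroup.mk' Q b ∉ Cfsg.pCore p (G ⧸ Q) := fun h => hbQ (hO
    (CfsgLib.PCore.le_pCore (N := (Cfsg.pCore p (G ⧸ Q)).comap (QuotientGroup.mk' Q))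
      ((Cfsg.pCore_normal p _).comap _)
      ((CfsgLib.PCore.isPGroup_pCore p _).comap_of_ker_isPGroup _ (by rwa [QuotientGroup.ker_mk'])) h))
  rw [CfsgLib.Subnormal.mem_pCore_iff] at hbO
  push Not at hbO
  obtain ⟨γ, hγ⟩ := hbO
  obtain ⟨g, rfl⟩ := QuotientGroup.mk'_surjective Q γ
  set b' := g * b * g⁻¹ with hb'def
  set z' := g * z * g⁻¹ with hz'def
  have hz'Q : z' ∈ Q := Subgroup.Normal.conj_mem inferInstance z hzQ g
  have hz'p := he z' hz'Q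
  have hb'z : b' * z' * b'⁻¹ = z' := by
    rw [hb'def, hz'def]
    calc g * b * g⁻¹ * (g * z * g⁻¹) * (g * b * g⁻¹)⁻¹ = g * (b * z * b⁻¹) * g⁻¹ := by group
      _ = g * z * g⁻¹ := by rw [hbz]
  have hb' : ∀ q ∈ Q, ⁅b', q⁆ ∈ Subgroup.zpowers z' := by
    intro q hq
    obtain ⟨k, hk⟩ := Subgroup.mem_zpowers_iff.1 (hb (g⁻¹ * q * g) (by simpa using Subgroup.Normal.conj_mem inferInstance q hq g⁻¹))
    refine ⟨k, ?_⟩
    show z' ^ k = _
    rw [hz'def, conj_zpow, hk, hb'def]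
    simp only [commutatorElement_def]; group
  have himg : (Subgroup.closure ({b, b'} : Set G)).map (QuotientGroup.mk' Q) = Subgroup.closure
      ({QuotientGroup.mk' Q b, QuotientGroup.mk' Q g * QuotientGroup.mk' Q b * (QuotientGroup.mk' Q g)⁻¹} : Set (G ⧸ Q)) := by
    rw [MonoidHom.map_closure, Set.image_pair, hb'def, map_mul, map_mul, map_inv]
  set U := Subgroup.zpowers z ⊔ Subgroup.zpowers z' with hU
  have hUQ : U ≤ Q := sup_le (Subgroup.zpowers_le.2 hzQ) (Subgroup.zpowers_le.2 hz'Q)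
  have hzpow_fix : ∀ {x t : G}, x * t * x⁻¹ = t → ∀ v ∈ Subgroup.zpowers t, x * v * x⁻¹ = v := by
    rintro x t h v ⟨k, rfl⟩
    show x * t ^ k * x⁻¹ = t ^ k
    rw [← conj_zpow, h]
  have hUcomm : ∀ {x t : G}, x * t * x⁻¹ = t → ⁅x, t⁆ = 1 := fun h => by rw [commutatorElement_def, h, mul_inv_cancel]
  -- both cross commutators are non-trivial
  have hdeg : ∀ {x x' t t' : G}, x * t * x⁻¹ = t → x' * t' * x'⁻¹ = t' → t ∈ Q → t' ∈ Q →
      (∀ q ∈ Q, ⁅x, q⁆ ∈ Subgroup.zpowers t) → (∀ q ∈ Q, ⁅x', q⁆ ∈ Subgroup.zpowers t') → ⁅x, t'⁆ = 1 →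
      IsPGroup p ((Subgroup.closure ({x, x'} : Set G)).map (QuotientGroup.mk' Q)) := by
    intro x x' t t' ht ht' htQ ht'Q hx hx' h1
    have hxt' : x * t' * x⁻¹ = t' := by
      rw [commutatorElement_def, mul_inv_eq_one] at h1; exact h1
    refine isPGroup_map_closure hQp hC (W := Subgroup.zpowers t ⊔ Subgroup.zpowers t') (Z := Subgroup.zpowers t')
      (sup_le (Subgroup.zpowers_le.2 htQ) (Subgroup.zpowers_le.2 ht'Q)) le_sup_right _ ?_ ?_ ?_
    · rintro y (rfl | rfl) q hq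
      exacts [Subgroup.mem_sup_left (hx q hq), Subgroup.mem_sup_right (hx' q hq)]
    · rintro y (rfl | rfl) w hw
      · have h2 : Subgroup.zpowers t ⊔ Subgroup.zpowers t' ≤ Subgroup.centralizer {y} :=
          sup_le (Subgroup.zpowers_le.2 (Subgroup.mem_centralizer_singleton_iff.2 (mul_inv_eq_iff_eq_mul.1 ht).symm))
            (Subgroup.zpowers_le.2 (Subgroup.mem_centralizer_singleton_iff.2 (mul_inv_eq_iff_eq_mul.1 hxt').symm))
        rw [commutatorElement_eq_one_iff_mul_comm.2 (Subgroup.mem_centralizer_singleton_iff.1 (h2 hw)).symm]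
        exact one_mem _
      · exact hx' w (sup_le (Subgroup.zpowers_le.2 htQ) (Subgroup.zpowers_le.2 ht'Q) hw)
    · rintro y (rfl | rfl) v hv
      exacts [hzpow_fix hxt' v hv, hzpow_fix ht' v hv]
  obtain ⟨a, ha⟩ := Subgroup.mem_zpowers_iff.1 (hb z' hz'Q)
  obtain ⟨c, hc'⟩ := Subgroup.mem_zpowers_iff.1 (hb' z hzQ)
  have ha1 : ⁅b, z'⁆ ≠ 1 := fun h1 => hγ (himg ▸ hdeg hbz hb'z hzQ hz'Q hb hb' h1)
  have hc1 : ⁅b', z⁆ ≠ 1 := fun h1 => hγ (himg ▸ Set.pair_comm b b' ▸ hdeg hb'z hbz hz'Q hzQ hb' hb h1)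
  have ha0 : (a : ZMod p) ≠ 0 := fun h0 => ha1 (ha ▸ (zpow_congr hzp (y := 0) (by simpa using h0)).trans (zpow_zero z))
  have hc0 : (c : ZMod p) ≠ 0 := fun h0 => hc1 (hc' ▸ (zpow_congr hz'p (y := 0) (by simpa using h0)).trans (zpow_zero z'))
  have hbz' : b * z' * b⁻¹ = z ^ a * z' := by rw [ha, commutatorElement_def, inv_mul_cancel_right]
  have hb'z0 : b' * z * b'⁻¹ = z' ^ c * z := by rw [hc', commutatorElement_def, inv_mul_cancel_right]
  set j : ℕ := ((-(a : ZMod p)⁻¹) / (c : ZMod p)).val with hj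
  set m : ℤ := c * j with hm
  have ham : ((a * m : ℤ) : ZMod p) = -1 := by
    rw [hm, hj]; push_cast
    rw [ZMod.natCast_val, ZMod.cast_id]
    field_simp
  have hcom : ∀ {x y : G}, x ∈ Q → y ∈ Q → Commute x y := fun hx hy => hc _ hx _ hy
  have hbpow : ∀ n : ℕ, b' ^ n * z * (b' ^ n)⁻¹ = z' ^ (c * n) * z := by
    intro n
    induction n with
    | zero => simp
    | succ n ih =>
      calc b' ^ (n + 1) * z * (b' ^ (n + 1))⁻¹ = b' * (b' ^ n * z * (b' ^ n)⁻¹) * b'⁻¹ := by rw [pow_succ']; group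
        _ = (b' * z' ^ (c * (n : ℤ)) * b'⁻¹) * (b' * z * b'⁻¹) := by rw [ih]; group
        _ = z' ^ (c * ((n + 1 : ℕ) : ℤ)) * z := by
          rw [hzpow_fix hb'z _ ⟨_, rfl⟩, hb'z0, ← mul_assoc, ← zpow_add]
          push_cast; ring_nf
  set l := b' ^ j with hl
  have hlz : l * z * l⁻¹ = z' ^ m * z := hbpow j
  have hlz' : l * z' * l⁻¹ = z' := by
    have : Commute b' z' := mul_inv_eq_iff_eq_mul.1 hb'z
    rw [hl, (this.pow_left j).eq, mul_inv_cancel_right]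
  set w := b * l * b with hw
  have cw : ∀ (x t : G) (k : ℤ), x * t ^ k * x⁻¹ = (x * t * x⁻¹) ^ k := fun x t k => conj_zpow.symm
  have hwz : w * z * w⁻¹ = z' ^ m := by
    calc w * z * w⁻¹ = b * (l * (b * z * b⁻¹) * l⁻¹) * b⁻¹ := by rw [hw]; group
      _ = b * (z' ^ m * z) * b⁻¹ := by rw [hbz, hlz]
      _ = (b * z' ^ m * b⁻¹) * (b * z * b⁻¹) := by group
      _ = z ^ (a * m) * z' ^ m * z := by
        rw [cw, hbz', hbz, (hcom (Q.zpow_mem hzQ a) hz'Q).mul_zpow, ← zpow_mul]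
      _ = z ^ (-1 : ℤ) * z' ^ m * z := by rw [zpow_congr hzp (ham.trans (by push_cast; ring) : ((a * m : ℤ) : ZMod p) = ((-1 : ℤ) : ZMod p))]
      _ = z' ^ m := by rw [zpow_neg_one, mul_assoc, (hcom (Q.zpow_mem hz'Q m) hzQ).eq, inv_mul_cancel_left]
  have hwz' : w * z' * w⁻¹ = z ^ a := by
    calc w * z' * w⁻¹ = b * (l * (b * z' * b⁻¹) * l⁻¹) * b⁻¹ := by rw [hw]; group
      _ = b * ((l * z ^ a * l⁻¹) * (l * z' * l⁻¹)) * b⁻¹ := by rw [hbz']; group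
      _ = b * (z' ^ (m * a + 1) * z ^ a) * b⁻¹ := by
        rw [cw, hlz, hlz', (hcom (Q.zpow_mem hz'Q m) hzQ).mul_zpow, ← zpow_mul, zpow_add_one,
          mul_assoc (z' ^ (m * a)) z', (hcom hz'Q (Q.zpow_mem hzQ a)).eq, mul_assoc (z' ^ (m * a)) (z ^ a)]
      _ = b * z ^ a * b⁻¹ := by
        rw [zpow_congr hz'p (show ((m * a + 1 : ℤ) : ZMod p) = ((0 : ℤ) : ZMod p) by
          have h := ham; push_cast at h ⊢; linear_combination h), zpow_zero, one_mul]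
      _ = z ^ a := by rw [cw, hbz]
  set τ0 := w * w with hτ0
  have hτ0z : τ0 * z * τ0⁻¹ = z⁻¹ := by
    calc τ0 * z * τ0⁻¹ = w * (w * z * w⁻¹) * w⁻¹ := by rw [hτ0]; group
      _ = z⁻¹ := by
        rw [hwz, cw, hwz', ← zpow_mul, zpow_congr hzp (ham.trans (by push_cast; ring) : ((a * m : ℤ) : ZMod p) = ((-1 : ℤ) : ZMod p)),
          zpow_neg_one]
  have hτ0z' : τ0 * z' * τ0⁻¹ = z'⁻¹ := by
    calc τ0 * z' * τ0⁻¹ = w * (w * z' * w⁻¹) * w⁻¹ := by rw [hτ0]; group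
      _ = z'⁻¹ := by
        rw [hwz', cw, hwz, ← zpow_mul, zpow_congr hz'p (y := -1) (by have h := ham; push_cast at h ⊢; linear_combination h),
          zpow_neg_one]
  set W := Q ⊓ (Subgroup.centralizer {b} ⊓ Subgroup.centralizer {b'}) with hW
  have hb'fixW : ∀ x ∈ W, b * x * b⁻¹ = x ∧ b' * x * b'⁻¹ = x := fun x hx =>
    ⟨mul_inv_eq_iff_eq_mul.2 (Subgroup.mem_centralizer_singleton_iff.1 hx.2.1).symm,
     mul_inv_eq_iff_eq_mul.2 (Subgroup.mem_centralizer_singleton_iff.1 hx.2.2).symm⟩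
  have hτ0W : ∀ x ∈ W, τ0 * x * τ0⁻¹ = x := by
    intro x hx
    obtain ⟨h1, h2⟩ := hb'fixW x hx
    have h3 : Commute b x := mul_inv_eq_iff_eq_mul.1 h1
    have h4 : Commute b' x := mul_inv_eq_iff_eq_mul.1 h2
    have h5 : Commute w x := (h3.mul_left (h4.pow_left j)).mul_left h3
    exact mul_inv_eq_iff_eq_mul.2 (h5.mul_left h5).eq
  -- `Q = U W`
  have hdec : ∀ q ∈ Q, ∃ u ∈ U, ∃ v ∈ W, q = u * v := by
    intro q hq
    obtain ⟨k, hk⟩ := Subgroup.mem_zpowers_iff.1 (hb q hq)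
    obtain ⟨k', hk'⟩ := Subgroup.mem_zpowers_iff.1 (hb' q hq)
    set i : ℤ := ((((k : ZMod p) / a).val : ℕ) : ℤ)
    set i' : ℤ := ((((k' : ZMod p) / c).val : ℕ) : ℤ)
    set u := z' ^ i * z ^ i' with hu
    have huU : u ∈ U := Subgroup.mul_mem _ (Subgroup.mem_sup_right ⟨i, rfl⟩) (Subgroup.mem_sup_left ⟨i', rfl⟩)
    have hbu : b * u * b⁻¹ = z ^ k * u := by
      calc b * u * b⁻¹ = (b * z' ^ i * b⁻¹) * (b * z ^ i' * b⁻¹) := by rw [hu]; group
        _ = z ^ (a * i) * z' ^ i * z ^ i' := by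
          rw [cw, hbz', cw, hbz, (hcom (Q.zpow_mem hzQ a) hz'Q).mul_zpow, ← zpow_mul]
        _ = z ^ k * u := by
          rw [hu, mul_assoc, zpow_congr hzp (x := a * i) (y := k) (by
            simp only [i]; push_cast; rw [ZMod.natCast_val, ZMod.cast_id]; field_simp)]
    have hb'u : b' * u * b'⁻¹ = z' ^ k' * u := by
      calc b' * u * b'⁻¹ = (b' * z' ^ i * b'⁻¹) * (b' * z ^ i' * b'⁻¹) := by rw [hu]; group
        _ = z' ^ i * (z' ^ (c * i') * z ^ i') := by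
          rw [cw, hb'z, cw, hb'z0, (hcom (Q.zpow_mem hz'Q c) hzQ).mul_zpow, ← zpow_mul]
        _ = z' ^ k' * u := by
          rw [hu, ← mul_assoc, ← zpow_add, add_comm i, zpow_add, mul_assoc, zpow_congr hz'p (x := c * i') (y := k') (by
            simp only [i']; push_cast; rw [ZMod.natCast_val, ZMod.cast_id]; field_simp)]
    have huQ := hUQ huU
    refine ⟨u, huU, u⁻¹ * q, ⟨Q.mul_mem (Q.inv_mem huQ) hq, ?_, ?_⟩, by group⟩
    · refine Subgroup.mem_centralizer_singleton_iff.2 (mul_inv_eq_iff_eq_mul.1 ?_).symm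
      calc b * (u⁻¹ * q) * b⁻¹ = (b * u * b⁻¹)⁻¹ * ((b * q * b⁻¹ * q⁻¹) * q) := by group
        _ = u⁻¹ * q := by rw [hbu, ← commutatorElement_def, ← hk]; group
    · refine Subgroup.mem_centralizer_singleton_iff.2 (mul_inv_eq_iff_eq_mul.1 ?_).symm
      calc b' * (u⁻¹ * q) * b'⁻¹ = (b' * u * b'⁻¹)⁻¹ * ((b' * q * b'⁻¹ * q⁻¹) * q) := by group
        _ = u⁻¹ * q := by rw [hb'u, ← commutatorElement_def, ← hk']; group
  -- the coprime part of `τ0`
  obtain ⟨e, n, hn, hen⟩ := (orderOf τ0).exists_eq_pow_mul_and_not_dvd (orderOf_pos _).ne' p hp.out.ne_one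
  set τ := τ0 ^ (p ^ e) with hτ
  have hτp : (orderOf τ).Coprime p := by
    rw [hτ, orderOf_pow, hen, Nat.gcd_eq_right (dvd_mul_right _ _), Nat.mul_div_cancel_left _ (pow_pos hp.out.pos _)]
    exact (hp.out.coprime_iff_not_dvd.2 hn).symm
  obtain ⟨f, hf⟩ : Odd (p ^ e) := (hp.out.odd_of_ne_two hp2).pow
  have hτU : ∀ u ∈ U, τ * u * τ⁻¹ = u⁻¹ := by
    have h0 : ∀ u ∈ U, τ0 * u * τ0⁻¹ = u⁻¹ := by
      intro u hu
      obtain ⟨x, ⟨i, rfl⟩, y, ⟨i', rfl⟩, rfl⟩ : ∃ x ∈ Subgroup.zpowers z, ∃ y ∈ Subgroup.zpowers z', x * y = u := by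
        have hn : Subgroup.zpowers z' ≤ Subgroup.normalizer (Subgroup.zpowers z : Set G) :=
          Subgroup.zpowers_le.2 (Subgroup.mem_normalizer_fintype fun x hx => by
            rw [SetLike.mem_coe, (hcom hz'Q (Subgroup.zpowers_le.2 hzQ hx)).eq, mul_inv_cancel_right]; exact hx)
        have := Subgroup.coe_mul_of_right_le_normalizer_left (Subgroup.zpowers z) (Subgroup.zpowers z') hn
        exact Set.mem_mul.1 (this ▸ hu)
      calc τ0 * (z ^ i * z' ^ i') * τ0⁻¹ = (τ0 * z ^ i * τ0⁻¹) * (τ0 * z' ^ i' * τ0⁻¹) := by group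
        _ = (z ^ i * z' ^ i')⁻¹ := by
          rw [cw, hτ0z, cw, hτ0z', inv_zpow, inv_zpow, mul_inv_rev]
          exact (hcom (Q.inv_mem (Q.zpow_mem hzQ i)) (Q.inv_mem (Q.zpow_mem hz'Q i'))).eq
    intro u hu
    have : ∀ k : ℕ, τ0 ^ (2 * k + 1) * u * (τ0 ^ (2 * k + 1))⁻¹ = u⁻¹ := by
      intro k
      induction k with
      | zero => simpa using h0 u hu
      | succ k ih =>
        calc τ0 ^ (2 * (k + 1) + 1) * u * (τ0 ^ (2 * (k + 1) + 1))⁻¹
            = τ0 * (τ0 * (τ0 ^ (2 * k + 1) * u * (τ0 ^ (2 * k + 1))⁻¹) * τ0⁻¹) * τ0⁻¹ := by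
              rw [show 2 * (k + 1) + 1 = 2 + (2 * k + 1) by ring, pow_add, pow_two]; group
          _ = u⁻¹ := by rw [ih, h0 _ (U.inv_mem hu), inv_inv, h0 u hu]
    rw [hτ, hf]; exact this f
  have hτW : ∀ x ∈ W, τ * x * τ⁻¹ = x := fun x hx => by
    have h : Commute τ0 x := mul_inv_eq_iff_eq_mul.1 (hτ0W x hx)
    exact mul_inv_eq_iff_eq_mul.2 (h.pow_left _).eq
  have hinQ : ∀ t : G, (∀ u ∈ U, t * u * t⁻¹ = u) → (∀ x ∈ W, t * x * t⁻¹ = x) → t ∈ Q := fun t h1 h2 =>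
    hC (Subgroup.mem_centralizer_iff.2 fun q hq => by
      obtain ⟨u, hu, v, hv, rfl⟩ := hdec q hq
      refine (mul_inv_eq_iff_eq_mul.1 ?_).symm
      calc t * (u * v) * t⁻¹ = (t * u * t⁻¹) * (t * v * t⁻¹) := by group
        _ = u * v := by rw [h1 u hu, h2 v hv])
  have hbU : ∀ u ∈ U, b * u * b⁻¹ ∈ U := fun u hu => by
    have h := U.mul_mem (Subgroup.mem_sup_left (hb u (hUQ hu))) hu
    rwa [commutatorElement_def, inv_mul_cancel_right] at h
  have hbW : ∀ x ∈ W, b * x * b⁻¹ = x := fun x hx => (hb'fixW x hx).1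
  have hbU' : ∀ u ∈ U, b⁻¹ * u * b ∈ U := fun u hu => by
    obtain ⟨k, hk⟩ := Subgroup.mem_zpowers_iff.1 (hb (b⁻¹ * u * b) (by simpa using Subgroup.Normal.conj_mem inferInstance u (hUQ hu) b⁻¹))
    have e : b⁻¹ * u * b = (z ^ k)⁻¹ * u := by rw [hk, commutatorElement_def]; group
    rw [e]
    exact U.mul_mem (Subgroup.mem_sup_left (Subgroup.inv_mem _ ⟨k, rfl⟩)) hu
  -- `τ` commutes with `b` modulo `Q`
  set q0 := τ * b * τ⁻¹ * b⁻¹ with hq0
  have hq0Q : q0 ∈ Q := by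
    refine hinQ _ (fun u hu => ?_) fun x hx => ?_
    · have h1 := hbU' u hu
      have h2 : τ⁻¹ * (b⁻¹ * u * b) * τ = (b⁻¹ * u * b)⁻¹ := by
        have := hτU _ (U.inv_mem h1); rw [inv_inv] at this
        conv_lhs => rw [← this]
        group
      calc q0 * u * q0⁻¹ = τ * (b * (τ⁻¹ * (b⁻¹ * u * b) * τ) * b⁻¹) * τ⁻¹ := by rw [hq0]; group
        _ = τ * u⁻¹ * τ⁻¹ := by rw [h2]; group
        _ = u := by rw [hτU _ (U.inv_mem hu), inv_inv]
    · have h1 : b⁻¹ * x * b = x := by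
        conv_lhs => rw [← hbW x hx]
        group
      have h2 : τ⁻¹ * x * τ = x := by
        conv_lhs => rw [← hτW x hx]
        group
      calc q0 * x * q0⁻¹ = τ * (b * (τ⁻¹ * (b⁻¹ * x * b) * τ) * b⁻¹) * τ⁻¹ := by rw [hq0]; group
        _ = x := by rw [h1, h2, hbW x hx, hτW x hx]
  have hτ2 : τ * τ = 1 := by
    have h1 : τ * τ ∈ Q := hinQ _ (fun u hu => by
        calc τ * τ * u * (τ * τ)⁻¹ = τ * (τ * u * τ⁻¹) * τ⁻¹ := by group
          _ = u := by rw [hτU u hu, hτU _ (U.inv_mem hu), inv_inv])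
      (fun x hx => by
        calc τ * τ * x * (τ * τ)⁻¹ = τ * (τ * x * τ⁻¹) * τ⁻¹ := by group
          _ = x := by rw [hτW x hx, hτW x hx])
    have h2 : orderOf (τ * τ) ∣ orderOf τ := by rw [← pow_two]; exact orderOf_pow_dvd 2
    exact orderOf_eq_one_iff.1 (Nat.eq_one_of_dvd_coprimes (hτp.coprime_dvd_left h2) dvd_rfl
      (orderOf_dvd_of_pow_eq_one (he _ h1)))
  have hτi : τ⁻¹ = τ := inv_eq_of_mul_eq_one_left hτ2
  obtain ⟨u0, hu0, w0, hw0, hq0uw⟩ := hdec q0 hq0Q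
  have hcancel : τ * q0 * τ⁻¹ * q0 = 1 := by
    rw [hq0]
    calc τ * (τ * b * τ⁻¹ * b⁻¹) * τ⁻¹ * (τ * b * τ⁻¹ * b⁻¹) = (τ * τ) * b * (τ⁻¹ * τ⁻¹) * b⁻¹ := by group
      _ = 1 := by rw [hτ2, hτi, hτ2]; group
  have hw0Q : w0 ∈ Q := hw0.1
  have hu0Q := hUQ hu0
  have hw01 : w0 = 1 := by
    rw [hq0uw] at hcancel
    have h : w0 ^ 2 = 1 := by
      rw [← hcancel]
      calc w0 ^ 2 = u0⁻¹ * (u0 * w0 * w0) := by rw [pow_two]; group
        _ = u0⁻¹ * ((w0 * u0) * w0) := by rw [(hcom hu0Q hw0Q).eq]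
        _ = (τ * u0 * τ⁻¹) * (τ * w0 * τ⁻¹) * (u0 * w0) := by rw [hτU u0 hu0, hτW w0 hw0]; group
        _ = τ * (u0 * w0) * τ⁻¹ * (u0 * w0) := by group
    have := pow_gcd_eq_one (a := w0) |>.2 ⟨h, he w0 hw0Q⟩
    rwa [show Nat.gcd 2 p = 1 from (Nat.coprime_primes Nat.prime_two hp.out).2 (Ne.symm hp2), pow_one] at this
  rw [hw01, mul_one] at hq0uw
  set i : ℕ := (p + 1) / 2
  obtain ⟨pm, hpm⟩ := hp.out.odd_of_ne_two hp2
  set v := q0 ^ i with hv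
  have hvU : v ∈ U := U.pow_mem (hq0uw ▸ hu0) i
  have hv2 : v * v = q0 := by
    rw [hv, ← pow_add, show i + i = p + 1 by omega, pow_succ, he q0 hq0Q, one_mul]
  set cb := v * b with hcb
  have hτc : τ * cb * τ⁻¹ = cb := by
    calc τ * cb * τ⁻¹ = (τ * v * τ⁻¹) * q0 * b := by rw [hcb, hq0]; group
      _ = cb := by rw [hτU v hvU, ← hv2, inv_mul_cancel_left, hcb]
  obtain ⟨k, hk⟩ := Subgroup.mem_zpowers_iff.1 (hb v (hUQ hvU))
  have hvz : Commute v z := hcom (hUQ hvU) hzQ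
  have hbzc : Commute b z := mul_inv_eq_iff_eq_mul.1 hbz
  have hpowc : ∀ n : ℕ, ∃ s : ℕ, 2 * s + n = n * n ∧ cb ^ n = z ^ (k * s) * v ^ n * b ^ n := by
    intro n
    induction n with
    | zero => exact ⟨0, rfl, by simp⟩
    | succ n ih =>
      obtain ⟨s, hs, hcn⟩ := ih
      refine ⟨s + n, by nlinarith, ?_⟩
      have hbn : b ^ n * v * (b ^ n)⁻¹ = z ^ (k * n) * v := by
        clear hcn
        clear hs
        induction n with
        | zero => simp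
        | succ n ih =>
          calc b ^ (n + 1) * v * (b ^ (n + 1))⁻¹ = b * (b ^ n * v * (b ^ n)⁻¹) * b⁻¹ := by rw [pow_succ']; group
            _ = (b * z ^ (k * (n : ℤ)) * b⁻¹) * ((b * v * b⁻¹ * v⁻¹) * v) := by rw [ih]; group
            _ = z ^ (k * ((n + 1 : ℕ) : ℤ)) * v := by
              rw [cw, hbz, ← commutatorElement_def, ← hk, ← mul_assoc, ← zpow_add]
              push_cast; ring_nf
      calc cb ^ (n + 1) = z ^ (k * (s : ℤ)) * v ^ n * b ^ n * (v * b) := by rw [pow_succ, hcn, hcb]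
        _ = z ^ (k * (s : ℤ)) * v ^ n * (b ^ n * v * (b ^ n)⁻¹) * (b ^ n * b) := by group
        _ = z ^ (k * (s : ℤ)) * (v ^ n * z ^ (k * (n : ℤ))) * v * b ^ (n + 1) := by rw [hbn, pow_succ]; group
        _ = z ^ (k * (s : ℤ)) * z ^ (k * (n : ℤ)) * (v ^ n * v) * b ^ (n + 1) := by
          rw [((hvz.zpow_right _).pow_left n).eq]; group
        _ = _ := by rw [← zpow_add, ← pow_succ]; push_cast; ring_nf
  obtain ⟨s, hs, hcp⟩ := hpowc p
  have hsp : ((k * s : ℤ) : ZMod p) = ((0 : ℤ) : ZMod p) := by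
    have h2 : (2 : ZMod p) * (s : ZMod p) = 0 := by
      have := congrArg (fun t : ℕ => (t : ZMod p)) hs
      simpa using this
    haveI : Fact (2 < p) := ⟨lt_of_le_of_ne hp.out.two_le (Ne.symm hp2)⟩
    rcases mul_eq_zero.1 h2 with h3 | h3
    · exact absurd h3 (by
        intro h4
        have : p ∣ 2 := (ZMod.natCast_eq_zero_iff 2 p).1 (by exact_mod_cast h4)
        have := Nat.le_of_dvd two_pos this
        have := (Fact.out : 2 < p)
        omega)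
    · push_cast; rw [h3, mul_zero]
  rw [zpow_congr hzp hsp, zpow_zero, one_mul, he v (hUQ hvU), one_mul, hbp] at hcp
  have hzfix : τ * z * τ⁻¹ = z := by
    rw [← hcp, ← conj_pow, hτc]
  rw [hτU z (Subgroup.mem_sup_left (Subgroup.mem_zpowers z))] at hzfix
  have hz2 : z ^ 2 = 1 := by rw [pow_two]; exact eq_inv_iff_mul_eq_one.1 hzfix.symm
  have := pow_gcd_eq_one (a := z) |>.2 ⟨hz2, hzp⟩
  rw [show Nat.gcd 2 p = 1 from (Nat.coprime_primes Nat.prime_two hp.out).2 (Ne.symm hp2), pow_one] at this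
  exact hz1 this

end CfsgLib.CyclicInPCore
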