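import Cfsg.Agent.CyclicInPCore.Core
import Cfsg.Agent.Transfer.FrattiniP
import Cfsg.Agent.CoprimeAction.Basic
import Cfsg.Agent.PCore.PConstrained
import Cfsg.Agent.ZJ.Transvection
import Cfsg.Agent.ZJ.Involves

/-!
A cyclic subgroup normalized by a Sylow `p`-subgroup of a group with `C(O_p) ≤ O_p` lies in `O_p`.
-/

set_option autoImplicit false
set_option linter.style.haveILetI false

open scoped commutatorElement

namespace CfsgLib.CyclicInPCore

universe u

theorem transvection_card {G : Type u} [Group G] [Finite G] (V : Subgroup G)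
    (hab : ∀ a ∈ V, ∀ b ∈ V, a * b = b * a) {t z : G} (hz2 : z ^ 2 = 1)
    (ht : ∀ q ∈ V, ⁅t, q⁆ ∈ Subgroup.zpowers z) (hzV : z ∈ V) :
    Nat.card V ≤ 2 * Nat.card (V ⊓ Subgroup.centralizer ({t} : Set G) : Subgroup G) := by
  classical
  let f : V →* Subgroup.zpowers z := MonoidHom.mk' (fun q => ⟨⁅t, (q : G)⁆, ht q q.2⟩) fun a b => by
    refine Subtype.ext ?_
    show ⁅t, (a : G) * b⁆ = ⁅t, (a : G)⁆ * ⁅t, (b : G)⁆
    have hb : ⁅t, (b : G)⁆ ∈ V := Subgroup.zpowers_le.2 hzV (ht b b.2)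
    calc ⁅t, (a : G) * b⁆ = ⁅t, (a : G)⁆ * ((a : G) * ⁅t, (b : G)⁆) * (a : G)⁻¹ := by
          simp only [commutatorElement_def]; group
      _ = _ := by rw [hab _ a.2 _ hb]; group
  have hker : f.ker.map V.subtype ≤ V ⊓ Subgroup.centralizer ({t} : Set G) := by
    rintro _ ⟨q, hq, rfl⟩
    refine ⟨q.2, Subgroup.mem_centralizer_singleton_iff.2 ?_⟩
    have h : ⁅t, (q : G)⁆ = 1 := congrArg Subtype.val hq
    exact (commutatorElement_eq_one_iff_mul_comm.1 h).symm
  have h1 : Nat.card f.ker ≤ Nat.card (V ⊓ Subgroup.centralizer ({t} : Set G) : Subgroup G) := by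
    rw [← Subgroup.card_map_of_injective V.subtype_injective]
    exact Subgroup.card_le_of_le hker
  have h2 : Nat.card f.range ≤ 2 := by
    refine le_trans (Nat.card_le_card_of_injective _ f.range.subtype_injective) ?_
    rw [Nat.card_zpowers]
    exact Nat.le_of_dvd two_pos (orderOf_dvd_of_pow_eq_one hz2)
  calc Nat.card V = Nat.card f.ker * f.ker.index := (Subgroup.card_mul_index _).symm
    _ ≤ _ := by
      rw [Subgroup.index_ker, mul_comm]
      exact Nat.mul_le_mul h2 h1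

/-- The statement for `O_{p'}(G) = 1`. -/
theorem le_pCore_of_cyclic_normalized {p : ℕ} [hp : Fact p.Prime] {G : Type u} [Group G] [Finite G]
    (hC : Subgroup.centralizer (Cfsg.pCore p G : Set G) ≤ Cfsg.pCore p G) (P : Sylow p G) (A : Subgroup G)
    (hAP : A ≤ (P : Subgroup G)) (hAn : (P : Subgroup G) ≤ Subgroup.normalizer (A : Set G)) (hA : IsCyclic A)
    (h : p ≠ 2 ∨ ¬ Cfsg.Involves (Equiv.Perm (Fin 4)) G) : A ≤ Cfsg.pCore p G := by
  classical
  set K := Cfsg.pCore p G with hK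
  haveI hKn : K.Normal := Cfsg.pCore_normal p G
  have hKp : IsPGroup p K := CfsgLib.PCore.isPGroup_pCore p G
  have hKP : K ≤ (P : Subgroup G) := CfsgLib.PCore.pCore_le_sylow P
  set Φ := CfsgLib.Transfer.phi K with hΦ
  haveI hΦn : Φ.Normal := ⟨fun x hx g => (Subgroup.mem_normalizer_iff.1 (CfsgLib.Transfer.mem_normalizer_phi
    (Q := K) (g := g) (by rw [Subgroup.normalizer_eq_top]; trivial)) x).1 hx⟩
  have hΦK : Φ ≤ K := CfsgLib.Transfer.phi_le K
  set π := QuotientGroup.mk' Φ with hπ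
  have hπ1 : ∀ x, π x = 1 ↔ x ∈ Φ := fun x => QuotientGroup.eq_one_iff x
  have hπs : Function.Surjective π := QuotientGroup.mk'_surjective Φ
  set Q := K.map π with hQ
  haveI hQn : Q.Normal := hKn.map _ hπs
  have hQK : ∀ x, π x ∈ Q → x ∈ K := by
    rintro x ⟨k, hk, hkx⟩
    have h1 : k⁻¹ * x ∈ Φ := QuotientGroup.eq.1 hkx
    simpa using K.mul_mem hk (hΦK h1)
  have hQp : IsPGroup p Q := hKp.map _
  have hQc : ∀ u ∈ Q, ∀ v ∈ Q, u * v = v * u := by
    rintro _ ⟨x, hx, rfl⟩ _ ⟨y, hy, rfl⟩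
    rw [← commutatorElement_eq_one_iff_mul_comm, ← map_commutatorElement, hπ1]
    exact CfsgLib.Transfer.commutatorElement_mem_phi hKp hx hy
  have hQe : ∀ u ∈ Q, u ^ p = 1 := by
    rintro _ ⟨x, hx, rfl⟩
    rw [← map_pow, hπ1]
    exact CfsgLib.Transfer.pow_mem_phi hKp hx
  have hQC : Subgroup.centralizer (Q : Set (G ⧸ Φ)) ≤ Q := by
    set C := (Subgroup.centralizer (Q : Set (G ⧸ Φ))).comap π with hCdef
    haveI : C.Normal := (Subgroup.normal_centralizer (H := Q)).comap π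
    have hCp : IsPGroup p C := by
      refine CfsgLib.PCore.isPGroup_of_forall_coprime _ fun c hc hcp => ?_
      have hcK : c ∈ Subgroup.centralizer (K : Set G) := by
        refine CfsgLib.CoprimeAction.le_centralizer_of_frattini (A := Subgroup.zpowers c) (K := K) ?_ ?_
          (Subgroup.mem_zpowers c)
        · obtain ⟨n, hn⟩ := IsPGroup.iff_card.1 (hKp.to_subgroup (frattini K))
          rw [Nat.card_zpowers, hn]; exact hcp.pow_right n
        · intro a ha k hk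
          refine (hπ1 _).1 ?_
          have h1 : π a ∈ Subgroup.centralizer (Q : Set (G ⧸ Φ)) := Subgroup.zpowers_le.2 hc ha
          have h2 := Subgroup.mem_centralizer_iff.1 h1 (π k) ⟨k, hk, rfl⟩
          rw [map_mul, map_mul, map_mul, map_inv, map_inv, ← h2]
          group
      obtain ⟨n, hn⟩ := hKp ⟨c, hC hcK⟩
      refine orderOf_eq_one_iff.1 (Nat.eq_one_of_dvd_coprimes (hcp.pow_right n) dvd_rfl ?_)
      exact orderOf_dvd_of_pow_eq_one (congrArg Subtype.val hn)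
    intro x hx
    obtain ⟨g, rfl⟩ := hπs x
    exact ⟨g, CfsgLib.PCore.le_pCore (N := C) inferInstance hCp hx, rfl⟩
  have hQO : Cfsg.pCore p (G ⧸ Φ) ≤ Q := by
    intro x hx
    obtain ⟨g, rfl⟩ := hπs x
    refine ⟨g, CfsgLib.PCore.le_pCore (N := (Cfsg.pCore p (G ⧸ Φ)).comap π) ((Cfsg.pCore_normal p _).comap _)
      ((CfsgLib.PCore.isPGroup_pCore p _).comap_of_ker_isPGroup _ ?_) hx, rfl⟩
    rw [hπ, QuotientGroup.ker_mk']
    exact hKp.to_le hΦK
  obtain ⟨a0, ha0⟩ := hA.exists_generator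
  by_contra hcon
  have haA : (a0 : G) ∈ A := a0.2
  have haK : π a0 ∉ Q := fun hq => hcon fun x hx => by
    obtain ⟨i, hi⟩ := ha0 ⟨x, hx⟩
    have : x = (a0 : G) ^ i := (congrArg Subtype.val hi).symm.trans (Subgroup.coe_zpow _ _ _)
    rw [this]
    exact K.zpow_mem (hQK _ hq) i
  set α := π a0 with hα
  have hAB : ∀ x ∈ A.map π, x ∈ Subgroup.zpowers α := by
    rintro _ ⟨x, hx, rfl⟩
    obtain ⟨i, hi⟩ := ha0 ⟨x, hx⟩
    refine ⟨i, ?_⟩
    show α ^ i = π x
    rw [hα, ← map_zpow, ← Subgroup.coe_zpow]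
    exact congrArg π (congrArg Subtype.val hi)
  have hcomm : ∀ x ∈ Subgroup.zpowers α, ∀ q ∈ Q, ⁅x, q⁆ ∈ Subgroup.zpowers α ⊓ Q := by
    intro x hx q hq
    refine ⟨?_, ?_⟩
    · obtain ⟨k, hk, rfl⟩ := hq
      obtain ⟨i, rfl⟩ := Subgroup.mem_zpowers_iff.1 hx
      rw [hα, ← map_zpow, ← map_commutatorElement]
      refine hAB _ ⟨_, ?_, rfl⟩
      have hn := hAn (hKP hk)
      have h1 : k * ((a0 : G) ^ i)⁻¹ * k⁻¹ ∈ A :=
        (Subgroup.mem_normalizer_iff.1 hn _).1 (A.inv_mem (A.zpow_mem haA i))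
      have e : ⁅(a0 : G) ^ i, k⁆ = (a0 : G) ^ i * (k * ((a0 : G) ^ i)⁻¹ * k⁻¹) := by
        simp only [commutatorElement_def]; group
      rw [e]
      exact A.mul_mem (A.zpow_mem haA i) h1
    · have e : ⁅x, q⁆ = x * q * x⁻¹ * q⁻¹ := rfl
      rw [e]
      exact Q.mul_mem (hQn.conj_mem q hq x) (Q.inv_mem hq)
  -- the order of `α` modulo `Q`
  set ρ := QuotientGroup.mk' Q with hρ
  have hρ1 : ∀ x, ρ x = 1 ↔ x ∈ Q := fun x => QuotientGroup.eq_one_iff x
  obtain ⟨j, hj⟩ : ∃ j, orderOf (ρ α) = p ^ j := by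
    obtain ⟨n, hn⟩ := P.2 ⟨a0, hAP haA⟩
    obtain ⟨j, -, hj⟩ := (Nat.dvd_prime_pow hp.out).1 (orderOf_dvd_of_pow_eq_one
      (show (ρ α) ^ p ^ n = 1 by
        rw [hα, ← map_pow, ← map_pow, show (a0 : G) ^ p ^ n = 1 from congrArg Subtype.val hn, map_one, map_one]))
    exact ⟨j, hj⟩
  rcases Nat.eq_zero_or_eq_succ_pred j with h0 | h0
  · rw [h0, pow_zero, orderOf_eq_one_iff, hρ1] at hj
    exact haK hj
  set j' := j.pred
  set b := α ^ p ^ j' with hb
  set z := b ^ p with hz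
  have hzα : z = α ^ p ^ j := by rw [hz, hb, ← pow_mul, ← pow_succ, show j' + 1 = j from h0.symm]
  have hzQ : z ∈ Q := by rw [hzα, ← hρ1, map_pow, ← hj, pow_orderOf_eq_one]
  have hbQ : b ∉ Q := fun hbQ => by
    rw [← hρ1, hb, map_pow] at hbQ
    have := Nat.le_of_dvd (pow_pos hp.out.pos _) (hj ▸ orderOf_dvd_of_pow_eq_one hbQ)
    exact absurd ((Nat.pow_le_pow_iff_right hp.out.one_lt).1 this) (by omega)
  have hint : ∀ x ∈ Subgroup.zpowers α ⊓ Q, x ∈ Subgroup.zpowers z := by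
    rintro x ⟨hx, hxQ⟩
    obtain ⟨i, rfl⟩ := Subgroup.mem_zpowers_iff.1 hx
    have h1 : (ρ α) ^ i = 1 := by rw [← map_zpow]; exact (hρ1 _).2 hxQ
    obtain ⟨k, rfl⟩ := orderOf_dvd_iff_zpow_eq_one.2 h1
    exact ⟨k, by rw [hzα, zpow_mul, hj, zpow_natCast]⟩
  have hbα : b ∈ Subgroup.zpowers α := Subgroup.pow_mem _ (Subgroup.mem_zpowers α) _
  have hb' : ∀ q ∈ Q, ⁅b, q⁆ ∈ Subgroup.zpowers z := fun q hq => hint _ (hcomm b hbα q hq)
  have hz1 : z ≠ 1 := by
    intro h1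
    refine haK (hQC (Subgroup.mem_centralizer_iff.2 fun q hq => ?_))
    have h2 := hint _ (hcomm α (Subgroup.mem_zpowers α) q hq)
    rw [h1, Subgroup.zpowers_one_eq_bot, Subgroup.mem_bot, commutatorElement_eq_one_iff_mul_comm] at h2
    exact h2.symm
  by_cases hp2 : p = 2
  · subst hp2
    refine (h.resolve_left (by simp)) (CfsgLib.ZJ.involves_quotient Φ ?_)
    refine CfsgLib.ZJ.involves_S4_of_transvection Q hQc hQp (t := b) (fun hbC => hbQ (hQC hbC)) ?_
      (transvection_card Q hQc (hQe z hzQ) hb' hzQ) ?_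
    · exact Subgroup.mem_centralizer_iff.2 fun q hq => hQc q hq _ hzQ
    · intro N hN hCN hN2 x hx
      have hNp : IsPGroup 2 N := by
        rintro ⟨y, hy⟩
        obtain ⟨k, hk⟩ := hN2 y hy
        obtain ⟨m, hm⟩ := hQp ⟨_, hQC hk⟩
        refine ⟨k + m, Subtype.ext ?_⟩
        have := congrArg Subtype.val hm
        simp only [Subgroup.coe_pow, Subgroup.coe_one] at this ⊢
        rw [pow_add, pow_mul]; exact this
      exact Subgroup.mem_centralizer_iff.2 fun q hq => hQc q hq _ (hQO (CfsgLib.PCore.le_pCore hN hNp hx))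
  · exact false_of_cyclic_transvection hp2 Q hQc hQe hQC hQO hzQ hz1 hz.symm hb'

end CfsgLib.CyclicInPCore
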